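import Cfsg.Agent.Lib.M5.FiveD
import Cfsg.Agent.Lib.M4.V4
import Cfsg.Agent.Lib.PGroup.SectionRep
import Cfsg.Agent.Lib.Linear.Simple

/-!
# The normaliser of a pure `2⁵` in a group of Monster type (helper24)
-/

set_option autoImplicit false
set_option maxRecDepth 100000

namespace Cfsg.Lib.M5

open Subgroup MulAction Matrix Cfsg.Lib.Leech Cfsg.Lib.ES Cfsg.Spor Cfsg.Lib.Mon Cfsg.Lib.Calc Cfsg.Lib.F2 Cfsg.Lib.PGroup
open scoped commutatorElement

theorem pCore_s3 : pCore 2 (Equiv.Perm (Fin 3)) = ⊥ := by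
  have := M4.pCore_m24_s3
  rw [Core.pCore_prod, prod_eq_bot_iff] at this
  exact this.2

theorem pCore_sl : pCore 2 (SpecialLinearGroup (Fin 5) (ZMod 2)) = ⊥ := by
  rcases Linear.normal_SL_le_center_or_eq_top (Or.inl (by simp)) (pCore 2 (SpecialLinearGroup (Fin 5) (ZMod 2))) with h | h
  · refine eq_bot_iff.2 fun A hA => ?_
    obtain ⟨r, h1, h2⟩ := Matrix.SpecialLinearGroup.mem_center_iff.1 (h hA)
    obtain rfl : r = 1 := by clear h2; revert r; decide
    exact Subtype.ext (by simpa using h2.symm)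
  · obtain ⟨k, hk⟩ := Core.pCore_eq_top_iff.1 h (SpecialLinearGroup.transvection (i := 0) (j := 1) (by decide) 1 *
      SpecialLinearGroup.transvection (i := 1) (j := 0) (by decide) 1)
    have := pow_gcd_eq_one.2 ⟨hk, show _ ^ 3 = 1 by decide +kernel⟩
    rw [Nat.Coprime.gcd_eq_one (Nat.Coprime.pow_left k (by norm_num : Nat.Coprime 2 3)), pow_one] at this
    exact absurd this (by decide +kernel)

/-- the codes of the basis -/
def wM : ℕ := 0xa58000b88000b42000800000000000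

variable {G : Type*} [Group G] [Finite G] {z g : G} {Q : Subgroup G}

theorem exists_five (D : XD z Q Co1 L2) (hc : Nat.card Q = 2 ^ (2 * 12 + 1)) (hg : g * z * g⁻¹ ∈ Q) (hne : g * z * g⁻¹ ≠ z) :
    ∃ (E N : Subgroup G) (O : Subgroup N), IsElementaryAbelian 2 E ∧ Nat.card E = 2 ^ 5 ∧ N = normalizer (E : Set G) ∧
      O = pCore 2 N ∧ Nat.card O = 2 ^ 35 ∧ (center O).map O.subtype = E.subgroupOf N ∧
      ∃ _ : O.Normal, Nonempty (N ⧸ O ≃* Equiv.Perm (Fin 3) × SpecialLinearGroup (Fin 5) (ZMod 2)) := by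
  obtain ⟨D, R, t, h⟩ := exists_st D hc hg hne
  have hx : ∀ i < 3, ∃ c, LRep 24 code2 (D.ρ c) (nth 0 xL i) := fun i hi => by
    obtain ⟨x, -, hx⟩ := good_x (nth 0 xL i) (by revert i; decide +kernel)
    obtain ⟨c, rfl⟩ := D.surj x
    exact ⟨c, hx⟩
  choose! c hc using hx
  obtain ⟨b, b0, b1, b2⟩ : ∃ b : ℕ → G, b 0 = z ∧ b 1 = t ∧ ∀ i, b (i + 2) = c i * t * (c i : G)⁻¹ :=
    ⟨fun | 0 => z | 1 => t | i + 2 => c i * t * (c i : G)⁻¹, rfl, rfl, fun _ => rfl⟩
  have hb : ∀ i < 5, b i ∈ Q ∧ code2 (D.π (b i)) = get 24 wM i := by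
    rintro (_ | _ | i) hi
    · rw [b0, D.π_z]; exact ⟨D.lg.mem, code2_zero⟩
    · rw [b1]; exact ⟨h.pr.mem_l, h.code_t⟩
    · rw [b2, D.π_conj _ _ h.pr.mem_l, hc i (by omega), h.code_t]
      exact ⟨D.conj_mem _ h.pr.mem_l, (by decide +kernel : ∀ i < 3, app 24 (nth 0 xL i) 8388608 = get 24 wM (i + 2)) i (by omega)⟩
  have hcd : ∀ k, code2 (D.π (prodA b k 5)) = appA 24 wM k 5 := fun k => code_prodA D fun i hi _ => hb i hi
  obtain ⟨E, hU, cE, mE, ji, ψ, hψ, kψ⟩ := exists_par (num_fin 5) (fun x => h.mul_self)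
    (fun i hi => h.mem_R (hb i hi).1 (by rw [(hb i hi).2]; revert i; decide +kernel)) fun k hk e => by
      have := hcd k
      rw [e, D.π_one, code2_zero] at this
      refine ((by decide +kernel : ∀ k < 2 ^ 5, 0 = appA 24 wM k 5 → k = 0 ∨ k = 2 ^ 0) k hk this).resolve_right ?_
      rintro rfl
      exact D.lg.ne_one (by rw [← b0, ← e, prodA_two_pow (by norm_num)])
  have bE : ∀ i < 5, b i ∈ E := fun i hi => (mE _).2 ⟨_, Nat.pow_lt_pow_right (by norm_num) hi, prodA_two_pow hi⟩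
  have zE : z ∈ E := b0 ▸ bE 0 (by norm_num)
  have hQ : E ≤ Q := hU.trans inf_le_left
  have hUE : Q ⊓ R ≤ centralizer (E : Set G) := fun x hx y hy => comm_of_sq (fun x => h.mul_self) (hU hy) hx
  have hz : centralizer (E : Set G) ≤ centralizer {z} := centralizer_le (by simpa using zE)
  have hn : ∀ i < 5, ∃ n ∈ normalizer (E : Set G), n * z * n⁻¹ = b i := by
    obtain ⟨n, hn, e, -⟩ := h.exists_swap
    replace hn := h.pr.le_normalizer ((closure_le _).2 (by
      rintro _ (rfl | rfl)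
      exacts [zE, b1 ▸ bE 1 (by norm_num)])) hU hn
    rintro (_ | _ | i) hi
    · exact ⟨1, one_mem _, by simp [b0]⟩
    · exact ⟨n, hn, e.trans b1.symm⟩
    refine ⟨c i * n, mul_mem (Core.mem_normalizer_of_map_conj_le ?_) hn, by rw [b2, ← e]; group⟩
    rintro _ ⟨x, hx, rfl⟩
    obtain ⟨k, hk, e⟩ := (mE x).1 hx
    obtain ⟨l, -, hl⟩ := (by decide +kernel : ∀ i < 3, ∀ k < 2 ^ 5, ∃ l < 32,
      app 24 (nth 0 xL i) (appA 24 wM k 5) = appA 24 wM l 5) i (by omega) k hk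
    exact mem_of_span D hQ zE (fun i hi _ => ⟨_, bE i hi, (hb i hi).2⟩) (D.conj_mem _ (hQ hx))
      ((congrArg code2 (D.π_conj _ _ (hQ hx))).trans (by rw [hc i (by omega), ← e, hcd, hl]))
  have hm : ((centralizer (E : Set G)).subgroupOf (centralizer ({z} : Set G))).map D.ρ = fixL wL := by
    refine le_antisymm ?_ fun k hk => ?_
    · rintro _ ⟨l, hl, rfl⟩ v hv
      obtain ⟨i, hi, e⟩ := (by decide +kernel : ∀ c ∈ wL, ∃ i < 5, get 24 wM i = c) _ hv
      rw [← code2_injective ((hb i hi).2.trans e)]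
      exact D.fix_of_comm (hb i hi).1 (hl _ (bE i hi)).symm
    · obtain ⟨l, e, hl⟩ := exists_lift D hQ zE (k := k) fun x hx => by
        obtain ⟨k, -, rfl⟩ := (mE x).1 hx
        exact fix_span hk (by decide +kernel) (hcd k)
      exact ⟨l, hl, e⟩
  obtain ⟨χ, hχ⟩ := exists_chi
  let ρ : centralizer (E : Set G) →* fixL wL := (D.ρ.comp (inclusion hz)).codRestrict _ fun l => hm ▸ ⟨_, l.2, rfl⟩
  have ha : Function.Surjective (χ.comp ρ) := hχ.comp fun s => let ⟨l, hl, e⟩ := hm.ge s.2; ⟨⟨l, hl⟩, Subtype.ext e⟩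
  have hρ : ∀ l, ρ l = 1 ↔ (l : G) ∈ Q := fun l => Subtype.ext_iff.trans (D.ker _)
  have ck : Nat.card (χ.comp ρ).ker = 2 ^ 35 := by
    have h1 := card_ker_mul ha
    have h2 := D.card_map_mul hz
    have h3 := card_cen D.lg D.es hQ zE
    rw [hm, card_k.1] at h2
    rw [cE, h.card, Fintype.card_fin] at h3
    rw [Nat.card_perm, Nat.card_fin, show Nat.factorial 3 = 6 from rfl] at h1
    omega
  generalize hO : (χ.comp ρ).ker.map (Subgroup.subtype _) = O
  have mO : ∀ l : centralizer (E : Set G), χ.comp ρ l = 1 ↔ (l : G) ∈ O := fun l =>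
    hO ▸ (mem_map_iff_mem (K := (χ.comp ρ).ker) (Subgroup.subtype_injective _)).symm
  have oL : O ≤ centralizer (E : Set G) := hO ▸ map_subtype_le _
  have qO : Q ⊓ centralizer (E : Set G) ≤ O := fun x hx => (mO ⟨x, hx.2⟩).1 (by
    rw [MonoidHom.comp_apply, (hρ _).2 hx.1, map_one])
  have cO : Nat.card O = 2 ^ 35 := by rw [← hO, card_subtype, ck]
  have nL := Core.normalizer_le_normalizer_centralizer E
  have nO : normalizer (E : Set G) ≤ normalizer (O : Set G) := by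
    rw [← hO, ← MonoidHom.comap_bot, ← pCore_s3, Core.comap_pCore_eq ha (IsPGroup.of_card ck)]
    exact nL.trans (Core.normalizer_le_normalizer_pCoreOf 2 _)
  have LN := centralizer_le_normalizer (E : Set G)
  generalize hX : normalizer (E : Set G) ⊓ commStab O (centralizer (E : Set G)) = X
  have XN : X ≤ normalizer (E : Set G) := hX ▸ inf_le_left
  have nX : normalizer (E : Set G) ≤ normalizer (X : Set G) :=
    hX ▸ Core.le_normalizer_inf le_normalizer (le_normalizer_commStab nO nL)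
  have QN := D.lg.le_normalizer_of_mem hQ zE
  have QX : Q ≤ X := hX ▸ le_inf QN fun q hq => ⟨nO (QN hq), fun l hl => qO
    ⟨commutator_mem_of_mem_normalizer' (D.lg.norm (hz hl)) hq, commutator_mem_of_mem_normalizer (nL (QN hq)) hl⟩⟩
  have lX : ∀ l : centralizer (E : Set G), χ.comp ρ l = 1 ↔ (l : G) ∈ X := fun l => by
    refine ⟨fun e => hX ▸ ⟨LN l.2, nO (LN l.2), fun y hy =>
      commutator_mem_of_mem_normalizer' (nO (LN hy)) ((mO l).1 e)⟩, fun e => ?_⟩
    refine (by decide +kernel : ∀ x : Equiv.Perm (Fin 3), (∀ y : Equiv.Perm (Fin 3), ⁅x, y⁆ = 1) → x = 1) _ fun y => ?_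
    obtain ⟨y, rfl⟩ := ha y
    rw [← map_commutatorElement, mO]
    exact (hX.ge e).2.2 y y.2
  let β : X →* SpecialLinearGroup (Fin 5) (ZMod 2) := MonoidHom.mk' (fun x => ⟨(ψ (inclusion XN x)).1,
    zmod_two_eq_one_of_ne_zero (GeneralLinearGroup.det_ne_zero _)⟩) fun x y => Subtype.ext (by rw [map_mul, map_mul]; rfl)
  have hβ : Function.Surjective β := MonoidHom.range_eq_top.1 (Linear.eq_top_of_transvection_mem _ fun i k hik a => by
    rcases zmod_two_eq_zero_or_one a with rfl | rfl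
    · exact ⟨1, Subtype.ext (by simp [β, SpecialLinearGroup.transvection])⟩
    have js : ∀ l : Fin 5, prodA b (code1 5 (finPt 5) (Pi.single l 1)) 5 = b l := fun l => by
      rw [(by decide +kernel : ∀ l : Fin 5, code1 5 (finPt 5) (Pi.single l 1) = 2 ^ l.1) l, prodA_two_pow l.2]
    obtain ⟨n, hn, e⟩ := hn i i.2
    have l := D.lg.conj n
    have l1 : E ≤ Q.map (MulAut.conj n).toMonoidHom := (Core.map_conj_eq_iff.2 hn).ge.trans (map_mono hQ)
    rw [e] at l
    have ad := fun u w => (congrArg (prodA b · 5) (code1_add (ix := finPt 5) (n := 5) u w)).trans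
      (prodA_xor (fun x => h.mul_self) fun i hi => hU (bE i hi))
    let H : Subgroup G := ⟨⟨⟨{x | ∃ v : Fin 5 → ZMod 2, v k = 0 ∧ prodA b (code1 5 (finPt 5) v) 5 = x}, by
      rintro _ _ ⟨u, hu, rfl⟩ ⟨w, hw, rfl⟩
      exact ⟨u + w, by simp [hu, hw], ad u w⟩⟩, 0, rfl, by simpa using (ad 0 0).symm⟩, by
      rintro _ ⟨u, hu, rfl⟩
      exact ⟨u, hu, eq_inv_of_mul_eq_one_left (h.mul_self (prodA_mem fun i hi _ => hU (bE i hi)))⟩⟩
    have mH : ∀ l, l ≠ k → b l ∈ H := fun l hl => ⟨Pi.single l 1, by simp [hl.symm], js l⟩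
    obtain ⟨q, hq, e1⟩ := l.exists_conj_of_not_mem (isExtraspecial_conj D.es n) (H := H) (by
      rintro _ ⟨u, -, rfl⟩
      exact l1 (prodA_mem fun i hi _ => bE i hi)) (mH i hik) (l1 (bE k k.2)) (by
      rintro ⟨u, hu, e⟩
      simp [ji (e.trans (js k).symm)] at hu)
    refine ⟨⟨q, Core.map_conj_le_of_mem_normalizer QX (nX hn) hq.1⟩, Subtype.ext
      (Matrix.ext_of_mulVec_single fun l => ji ((hψ _ _).trans ?_))⟩
    change q * _ * q⁻¹ = prodA b (code1 5 (finPt 5) (Matrix.transvection i k 1 *ᵥ _)) 5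
    rw [js, Matrix.transvection, add_mulVec, one_mulVec]
    by_cases hl : l = k
    · rw [hl, e1, add_comm, ad, js, ← js i]
      congr 3
      ext; simp [Pi.single_apply, Matrix.single, eq_comm]
    · rw [← hq.2 _ (mH l hl), mul_inv_cancel_right, ← js l]
      congr 2
      ext; simp [Matrix.single, Ne.symm hl])
  have kβ : ∀ x, β x = 1 ↔ (x : G) ∈ centralizer (E : Set G) := fun x =>
    (Subtype.ext_iff.trans Units.val_eq_one).trans (kψ (inclusion XN x))
  obtain ⟨φ, h1, h2⟩ := M4.exists_prod LN XN nX nL (fun n hn => by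
    obtain ⟨x, e⟩ := hβ ⟨(ψ ⟨n, hn⟩).1, zmod_two_eq_one_of_ne_zero (GeneralLinearGroup.det_ne_zero _)⟩
    have := (kψ ((inclusion XN x)⁻¹ * ⟨n, hn⟩)).1 (by
      rw [map_mul, map_inv, inv_mul_eq_one]
      exact Units.ext (congrArg Subtype.val e))
    exact ⟨x, x.2, this⟩) ha lX hβ kβ
  rw [show X ⊓ _ = O from le_antisymm (fun x hx => (mO ⟨x, hx.2⟩).1 ((lX _).2 hx.1))
    (le_inf (fun x hx => (lX ⟨x, oL hx⟩).1 ((mO _).2 hx)) oL)] at h2
  have oN := oL.trans LN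
  have c2 : Nat.card φ.ker = 2 ^ 35 := by rw [h2, Nat.card_congr (subgroupOfEquivOfLe oN).toEquiv, cO]
  refine ⟨E, _, φ.ker, ⟨⟨⟨fun x y => Subtype.ext (hUE (hU y.2) x x.2)⟩⟩, fun x hx => h.pr.sq_eq_one (hU hx)⟩,
    by rw [cE, Fintype.card_fin], rfl, ?_, c2, ?_, inferInstance, ⟨QuotientGroup.quotientKerEquivOfSurjective φ h1⟩⟩
  · rw [← Core.comap_pCore_eq h1 (IsPGroup.of_card c2), Core.pCore_prod, pCore_s3, pCore_sl, bot_prod_bot]; rfl
  rw [Core.map_subtype_center, h2]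
  ext n
  refine ⟨fun a => ?_, fun a => ⟨qO ⟨hQ a, hUE (hU a)⟩, fun y hy => Subtype.ext (oL hy n a).symm⟩⟩
  have a1 : (n : G) ∈ centralizer ((Q ⊓ centralizer (E : Set G) : Subgroup G) : Set G) := fun q hq =>
    congrArg Subtype.val (a.2 ⟨q, oN (qO hq)⟩ (qO hq))
  refine cen_cen D.lg D.es hQ zE ((D.ker ⟨n, hz (oL a.1)⟩).1 (card_k.2.2.le fun v hv => ?_)) a1
  obtain ⟨q, hq, rfl⟩ := D.π_surj v
  exact D.fix_of_comm hq (a1 q ⟨hq, hUE (h.mem_R hq
    ((by decide +kernel : ∀ c ∈ wL ++ bL, c % 4096 = 0) _ hv))⟩).symm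

end Cfsg.Lib.M5
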