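import Cfsg.Agent.Lib.M5.Ten2
import Cfsg.Agent.Lib.F2.Suborb2

/-!
# The normaliser of the orthogonal `2¹⁰` in a group of Monster type (helper24)
-/

set_option autoImplicit false
set_option maxRecDepth 100000

namespace Cfsg.Lib.M5

open Subgroup MulAction Cfsg.Lib.Leech Cfsg.Lib.ES Cfsg.Spor Cfsg.Lib.Mon Cfsg.Lib.Calc Cfsg.Lib.F2
open scoped commutatorElement

variable {G : Type*} [Group G]

theorem card_eq_conj (N : Subgroup G) (x : G) :
    Nat.card N = {y | ∃ n ∈ N, n * x * n⁻¹ = y}.ncard * Nat.card ↥(N ⊓ centralizer {x}) := by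
  refine (F2.card_eq_ncard_mul (G := ConjAct G) (show Subgroup (ConjAct G) from N) x).trans (congrArg₂ _
    (congrArg _ (Set.ext fun y => ⟨fun ⟨n, e⟩ => ⟨n.1, n.2, e⟩, fun ⟨n, h, e⟩ => ⟨⟨n, h⟩, e⟩⟩)) ?_)
  refine Nat.card_congr (Equiv.subtypeEquivRight fun g => and_congr_right fun _ => ?_)
  exact mul_inv_eq_iff_eq_mul.trans mem_centralizer_singleton_iff.symm

variable [Finite G] {z g : G} {Q : Subgroup G}

theorem sq_mem_Z {D : XD z Q Co1 L2} {O E : Subgroup G} (hO : O = centralizer (E1 D : Set G))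
    (hE : E = O ⊓ centralizer (O : Set G)) {y : centralizer ({z} : Set G)} (hy : D.ρ y = s8) (yE : (y : G) ∈ E) {n : G}
    (hn : n ∈ normalizer (O : Set G)) (h1 : n * z * n⁻¹ ≠ z) {x : G} (hx : x ∈ O) : x ^ 2 ∈ E := by
  let B := O ⊓ ((zpowers s8).comap D.ρ).map (Subgroup.subtype _)
  let I := ⨅ m : normalizer (O : Set G), B.comap (MulAut.conj (m : G)).toMonoidHom
  have mI : ∀ {w}, w ∈ I ↔ ∀ m ∈ normalizer (O : Set G), m * w * m⁻¹ ∈ B := by simp [I, mem_iInf]
  have IB : I ≤ B := fun w hw => by simpa using mI.1 hw 1 (one_mem _)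
  have oz : O ≤ centralizer {z} := hO ▸ cen_le_z
  have nE := hE ▸ Core.le_normalizer_inf le_rfl (Core.normalizer_le_normalizer_centralizer O)
  have EI : E ≤ I := fun w hw => mI.2 fun m hm =>
    have := hE.le ((mem_normalizer_iff.1 (nE hm) w).1 hw)
    ⟨this.1, ⟨_, oz this.1⟩, rho_Z (hO ▸ this.2), rfl⟩
  have EE : E1 D ≤ E := fun w hw => hE.ge (hO ▸ ⟨E1_comm hw, fun d hd => (hd w hw).symm⟩)
  have dB : ∀ w ∈ B, ∃ e ∈ E, e * w ∈ Q := by
    rintro _ ⟨-, w, hw, rfl⟩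
    exact (mul_mem_or hy hw).elim (fun a => ⟨1, one_mem _, by simpa using a⟩) fun a => ⟨_, yE, a⟩
  have cB : ∀ v ∈ B, ∀ w ∈ B, ⁅v, w⁆ ∈ zpowers z := fun v hv w hw => by
    obtain ⟨e, he, a⟩ := dB v hv
    obtain ⟨f, hf, b⟩ := dB w hw
    have k1 := (hE.le he).2
    have k2 := (hE.le hf).2
    convert D.lg.commutator_mem a b using 1
    rw [← k1 v hv.1, ← k2 w hw.1]
    calc _ = v * w * (f * f⁻¹) * v⁻¹ * w⁻¹ := by group
      _ = v * (e * (w * f) * e⁻¹) * (v⁻¹ * f⁻¹) * w⁻¹ := by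
        rw [← k1 _ (mul_mem hw.1 (hE.le hf).1), (centralizer _).inv_mem k2 _ (inv_mem hv.1)]; group
      _ = _ := by group
  have cI : ∀ v ∈ I, ∀ w ∈ I, v * w = w * v := fun v hv w hw => commutatorElement_eq_one_iff_mul_comm.1
    ((D.lg.mem_iff.1 (cB v (IB hv) w (IB hw))).resolve_right fun e => by
      have := cB _ (mI.1 hv n hn) _ (mI.1 hw n hn)
      rw [← conjugate_commutatorElement, e] at this
      exact (D.lg.mem_iff.1 this).elim (D.lg.conj n).ne_one h1)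
  have xI : x ^ 2 ∈ I := mI.2 fun m hm => by
    have a := (mem_normalizer_iff.1 hm x).1 hx
    rw [← conj_pow]
    exact ⟨pow_mem a 2, ⟨_, oz a⟩ ^ 2, mem_comap.2
      (by rw [map_pow]; exact fix8.1.sq_mem _ (map_cen.le ⟨_, hO.le a, rfl⟩)), rfl⟩
  obtain ⟨e, he, q1⟩ := dB _ (IB xI)
  have q2 := mul_mem (EI he) xI
  rw [← E.mul_mem_cancel_left he]
  generalize e * x ^ 2 = q at q1 q2
  obtain ⟨c, hc, u, e⟩ := decomp8 (hy ▸ D.fix_of_comm q1 (cI _ (EI yE) _ q2))
  obtain ⟨p, hp, rfl⟩ := D.π_surj u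
  have a1 := comm_mem (c := y) (by rw [hy]; exact mem_zpowers _) hp
  have a2 : code2 (D.π (q * ⁅(y : G), p⁆)) = app 24 rM c := by
    rw [code_mul D q1 a1.1, (code_comm D (hy ▸ lrep_s) hp).2, ← e, code2_add, code2_add, lrep_s]
  have a3 := mul_mem q2 (EI (EE a1))
  have a4 := mul_mem q1 a1.1
  rw [← E.mul_mem_cancel_right (EE a1)]
  generalize q * ⁅(y : G), p⁆ = r at a2 a3 a4
  obtain rfl := iso8 hc fun k hk H hH => by
    obtain ⟨k, rfl⟩ := D.surj k
    have a5 := hO ▸ Core.normalizer_le_normalizer_centralizer _ (norm_E1 hk)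
    rw [← a2, ← hH, ← D.π_conj k r a4]
    exact (comm_iff_bil D a4 (D.conj_mem k a4)).1 (cI _ a3 _ (mI.2 fun m hm => by
      simpa [mul_assoc] using mI.1 a3 _ (mul_mem hm a5)))
  exact EE (mem_E1.2 ⟨a4, 0, by norm_num, by rw [a2, app_zero, app_zero]⟩)

theorem exists_ten (D : XD z Q Co1 L2) (hc : Nat.card Q = 2 ^ (2 * 12 + 1)) (hg : g * z * g⁻¹ ∈ Q) (hne : g * z * g⁻¹ ≠ z) :
    ∃ (E N : Subgroup G) (O : Subgroup N), IsElementaryAbelian 2 E ∧ Nat.card E = 2 ^ 10 ∧ N = normalizer (E : Set G) ∧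
      O = pCore 2 N ∧ IsSpecial 2 O ∧ Nat.card O = 2 ^ 26 ∧ (center O).map O.subtype = E.subgroupOf N ∧
      O = centralizer (E.subgroupOf N : Set N) ∧
      ∃ _ : O.Normal, Nonempty (N ⧸ O ≃* Omega (ZMod 2) (quadFormPlus 5 (ZMod 2))) := by
  obtain ⟨D, R, t, h⟩ := exists_st D hc hg hne
  obtain ⟨n, y, e1, nO, hy, yE, y2, c1, c2⟩ := h.exists_y
  obtain ⟨sE, cE, ψ, kψ⟩ := h.exists_psi hy ⟨yE, y2⟩ c1 c2 rfl
  have sO := fun x => sq_mem_Z (x := x) rfl rfl hy yE nO (e1 ▸ h.pr.ne)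
  have n1 := fun c a => Core.normalizer_le_normalizer_centralizer _ (norm_E1 (D := D) (c := c) a)
  have m1 := map_cen (D := D)
  have r1 := @rho_Z _ _ _ _ _ D
  have oz := cen_le_z (D := D)
  have EE : E1 D ≤ centralizer (E1 D : Set G) ⊓ centralizer (centralizer (E1 D : Set G) : Set G) :=
    fun w hw => ⟨E1_comm hw, fun d hd => (hd w hw).symm⟩
  have OE := centralizer_le (G := G) EE
  have QE : Q ⊓ _ = E1 D := le_antisymm (fun x (hx : x ∈ Q ⊓ (_ ⊓ centralizer (centralizer (E1 D : Set G) : Set G))) =>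
    cen_cen D.lg D.es (E1_le D) (z_mem D) hx.1 fun w hw => hx.2.2 w hw.2) (le_inf (E1_le D) EE)
  have c3 := card_cen D.lg D.es (E1_le D) (z_mem D)
  have qO : ∀ q ∈ Q, (∀ k < 256, bil (app 24 tM k) (code2 (D.π q)) = 0) → q ∈ centralizer (E1 D : Set G) :=
    fun q hq a x hx => let ⟨b, k, hk, e⟩ := mem_E1.1 hx; (comm_iff_bil D b hq).2 (e ▸ a k hk)
  have zE := EE (z_mem D)
  generalize centralizer (E1 D : Set G) = O at *
  have nE := Core.le_normalizer_inf le_rfl (Core.normalizer_le_normalizer_centralizer O)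
  have hE : ∀ {x}, x ∈ O ⊓ centralizer (O : Set G) ↔ x ∈ O ∧ x ∈ centralizer (O : Set G) := Iff.rfl
  generalize O ⊓ centralizer (O : Set G) = E at *
  replace OE : centralizer (E : Set G) = O := le_antisymm OE fun d hd e he => ((hE.1 he).2 d hd).symm
  have NO : normalizer (E : Set G) ≤ normalizer (O : Set G) := OE ▸ Core.normalizer_le_normalizer_centralizer E
  have oN : O ≤ normalizer (E : Set G) := OE ▸ centralizer_le_normalizer _
  have Ez : E ≤ centralizer {z} := fun x hx => oz (hE.1 hx).1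
  have cO : Nat.card O = 2 ^ 26 := by
    have a1 := D.card_map_mul Ez
    have a2 := D.card_map_mul oz
    rw [show map D.ρ _ = zpowers s8 from le_antisymm (by rintro _ ⟨x, hx, rfl⟩; exact r1 (hE.1 hx).2)
      ((zpowers_le (G := Co1)).2 ⟨y, yE, hy⟩), fix8.1.card_zpowers, QE, cE] at a1
    rw [m1, fix8.2.2.1] at a2
    rw [h.card, show Nat.card (E1 D) = 2 ^ 9 by omega] at c3
    omega
  have cP : Nat.card ↥(normalizer (E : Set G) ⊓ centralizer {z}) = 89181388800 * 2 ^ 25 := by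
    have a1 := D.card_map_mul (A := normalizer (E : Set G) ⊓ centralizer {z}) inf_le_right
    rw [show map D.ρ _ = centralizer {s8} from le_antisymm ?_ fun k hk => ?_, card_c8, inf_eq_left.2 (le_inf
      (fun q hq => nE (n1 ⟨q, D.lg.cent hq⟩ (by rw [(D.ker _).2 hq]; exact one_mem _))) D.lg.cent), h.card] at a1
    · exact a1.symm
    · rintro _ ⟨c, a, rfl⟩
      have := r1 (x := c * y * c⁻¹) (hE.1 ((mem_normalizer_iff.1 a.1 y).1 yE)).2
      rw [map_mul, map_mul, map_inv, hy] at this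
      exact mem_centralizer_singleton_iff.2 (mul_inv_eq_iff_eq_mul.1
        ((fix8.1.mem_iff.1 this).resolve_left (fix8.1.conj _).ne_one))
    · obtain ⟨c, rfl⟩ := D.surj k
      exact ⟨c, ⟨nE (n1 c hk), c.2⟩, rfl⟩
  have cN := card_eq_conj (normalizer (E : Set G)) z
  have SE : {u | ∃ m ∈ normalizer (E : Set G), m * z * m⁻¹ = u} ⊆ E := by
    rintro _ ⟨m, hm, rfl⟩
    exact (mem_normalizer_iff.1 hm z).1 zE
  have s1 := Set.ncard_le_ncard SE
  have s2 := orb8.trans ((Set.ncard_le_ncard (show _ ⊆ (fun u => code2 (D.π u)) ''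
      {u | ∃ m ∈ normalizer (E : Set G), m * z * m⁻¹ = u} by
    rintro _ ⟨_, ⟨⟨k, hk⟩, rfl⟩, rfl⟩
    obtain ⟨c, rfl⟩ := D.surj k
    refine ⟨c * t * (c : G)⁻¹, ⟨c * n, nE (mul_mem (n1 c (g_le hk)) nO), by rw [← e1]; group⟩, ?_⟩
    beta_reduce
    rw [D.π_conj c t h.pr.mem_l, h.pi]; rfl)).trans (Set.ncard_image_le (Set.toFinite _)))
  have k1 : ψ.ker = O.subgroupOf _ := Subgroup.ext fun x => (kψ x).trans (OE ▸ Iff.rfl)
  have k2 : Nat.card ψ.ker = 2 ^ 26 := by rw [k1, Nat.card_congr (subgroupOfEquivOfLe oN).toEquiv, cO]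
  have k3 := ψ.ker.card_mul_index
  have k4 := ψ.range.card_mul_index
  rw [← Nat.card_coe_set_eq (E : Set G), SetLike.coe_sort_coe, cE] at s1
  rw [index_ker, k2, cN, cP] at k3
  rw [card_iso] at k4
  have k5 : ψ.range.index = 2 ∧ {u | ∃ m ∈ normalizer (E : Set G), m * z * m⁻¹ = u}.ncard = 527 := by
    generalize ψ.range.index = i, Nat.card ψ.range = r,
      {u | ∃ m ∈ normalizer (E : Set G), m * z * m⁻¹ = u}.ncard = m at *
    obtain rfl : r = m * 44590694400 := by omega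
    have : i < 8 := by nlinarith
    interval_cases i <;> omega
  have k6 : Omega (ZMod 2) (quadFormPlus 5 (ZMod 2)) = ψ.range := by
    have := normal_of_index_eq_two k5.1
    have a := (Omega (ZMod 2) (quadFormPlus 5 (ZMod 2))).card_mul_index
    rw [index_om, card_iso] at a
    rw [k5.1] at k4
    exact eq_of_le_of_card_ge (PGroup.commutator_le_of_index_prime _ k5.1) (by omega)
  let φ := ψ.codRestrict (Omega (ZMod 2) (quadFormPlus 5 (ZMod 2))) fun x => k6.ge ⟨x, rfl⟩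
  have h1 : Function.Surjective φ := fun w => let ⟨x, e⟩ := k6.le w.2; ⟨x, Subtype.ext e⟩
  have h2 : φ.ker = ψ.ker := MonoidHom.ker_codRestrict _ _ _
  have hp : IsPGroup 2 φ.ker := IsPGroup.of_card (h2 ▸ k2)
  have h3 : (center φ.ker).map φ.ker.subtype = E.subgroupOf _ := by
    rw [Core.map_subtype_center, h2, k1, Core.centralizer_subgroupOf_eq oN]
    exact Subgroup.ext fun x => hE.symm
  have h4 : ∀ x : φ.ker, x ∈ center φ.ker ↔ (x.1 : G) ∈ E := fun x => by
    rw [← mem_map_iff_mem (Subgroup.subtype_injective _), h3]; rfl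
  have h5 : frattini φ.ker ≤ center _ := (PGroup.frattini_le_iff_sq_mem hp).2 fun x =>
    (h4 _).2 (sO _ (k1.le (h2.le x.2)))
  have h6 : center φ.ker ≤ _root_.commutator φ.ker := fun x hx => by
    have a1 : z ∈ ⁅O, O⁆ := by
      obtain ⟨u, hu, cu⟩ := exists_of_code D (c := 256) (by norm_num)
      obtain ⟨v, hv, cv⟩ := exists_of_code D (c := 8400) (by norm_num)
      refine (D.lg.mem_iff.1 (D.lg.commutator_mem hu hv)).resolve_left (fun e => ?_) ▸ commutator_mem_commutator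
        (qO u hu (by rw [cu]; decide +kernel)) (qO v hv (by rw [cv]; decide +kernel))
      have := (comm_iff_bil D hu hv).1 (commutatorElement_eq_one_iff_mul_comm.1 e)
      rw [cu, cv] at this
      exact absurd this (by decide +kernel)
    have a2 := Set.ncard_le_ncard (show {u | ∃ m ∈ normalizer (E : Set G), m * z * m⁻¹ = u} ⊆ (⁅O, O⁆ ⊓ E : Subgroup G) by
      rintro _ ⟨m, hm, rfl⟩
      exact ⟨(mem_normalizer_iff.1 (Core.le_normalizer_commutator NO NO hm) z).1 a1, SE ⟨m, hm, rfl⟩⟩)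
    have a3 := card_mul_index ((⁅O, O⁆ ⊓ E).subgroupOf E)
    rw [k5.2, ← Nat.card_coe_set_eq, SetLike.coe_sort_coe] at a2
    rw [Nat.card_congr (subgroupOfEquivOfLe inf_le_right).toEquiv, cE, inf_subgroupOf_right, ← relIndex] at a3
    have a4 : E ≤ ⁅O, O⁆ := relIndex_eq_one.1 (by
      generalize (⁅O, O⁆ : Subgroup G).relIndex E = i at a3
      have : i < 2 := by nlinarith
      interval_cases i <;> omega)
    rw [← mem_map_iff_mem (Subgroup.subtype_injective _), map_subtype_commutator,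
      ← mem_map_iff_mem (Subgroup.subtype_injective _), map_commutator,
      show φ.ker.map _ = O by rw [h2, k1, subgroupOf_map_subtype, inf_eq_left.2 oN]]
    exact a4 ((h4 x).1 hx)
  have h7 := PGroup.commutator_le_frattini hp
  refine ⟨E, _, φ.ker, ⟨⟨⟨fun u v => Subtype.ext (comm_of_sq sE u.2 v.2)⟩⟩, fun x hx => (sq x).trans (sE x hx)⟩, cE, rfl,
    ?_, ⟨hp, le_antisymm h5 (h6.trans h7), le_antisymm (h7.trans h5) h6⟩, h2 ▸ k2, h3, ?_, inferInstance,
    ⟨QuotientGroup.quotientKerEquivOfSurjective φ h1⟩⟩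
  · rw [← Core.comap_pCore_eq h1 hp, pCore_om]; rfl
  · rw [Core.centralizer_subgroupOf_eq le_normalizer, OE, h2, k1]

end Cfsg.Lib.M5
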