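import Cfsg.Agent.Lib.M5.TenD

/-!
# The orthogonal `2¹⁰` in a group of Monster type: the hyperplane `z^⊥` (helper24)
-/

set_option autoImplicit false
set_option maxRecDepth 100000

namespace Cfsg.Lib.M5

open Subgroup MulAction Cfsg.Lib.Leech Cfsg.Lib.ES Cfsg.Spor Cfsg.Lib.Mon Cfsg.Lib.Calc Cfsg.Lib.F2
open scoped commutatorElement

variable {G : Type*} [Group G] {z : G} {Q : Subgroup G} (D : XD z Q Co1 L2)

/-- The preimage in `Q` of the commutator space. -/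
def E1 : Subgroup G where
  carrier := {q | q ∈ Q ∧ ∃ u : L2, D.π q = s8 • u + u}
  one_mem' := ⟨Q.one_mem, 0, by simp [D.π_one]⟩
  mul_mem' := by
    rintro a b ⟨ha, u, hu⟩ ⟨hb, v, hv⟩
    exact ⟨Q.mul_mem ha hb, u + v, by rw [D.π_mul a ha b hb, hu, hv, smul_add]; abel⟩
  inv_mem' := by
    rintro a ⟨ha, u, hu⟩
    exact ⟨Q.inv_mem ha, -u, by rw [D.π_inv ha, hu, smul_neg, neg_add]⟩

theorem E1_le : E1 D ≤ Q := fun _ h => h.1

theorem z_mem : z ∈ E1 D := ⟨D.lg.mem, 0, by simp [D.π_z]⟩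

variable {D}

theorem mem_E1 {q : G} : q ∈ E1 D ↔ q ∈ Q ∧ ∃ k < 256, code2 (D.π q) = app 24 tM k := and_congr_right fun _ => range8

theorem fix_E1 {r : Co1} (hr : r ∈ fixL w8L) {q : G} (hq : q ∈ E1 D) : r • D.π q = D.π q :=
  let ⟨_, _, e⟩ := (mem_E1.1 hq).2
  fix_span hr (by decide +kernel) e

theorem comm_mem {c : centralizer ({z} : Set G)} (hc : D.ρ c ∈ zpowers s8) {q : G} (hq : q ∈ Q) : ⁅(c : G), q⁆ ∈ E1 D := by
  refine ⟨Q.mul_mem (D.conj_mem c hq) (Q.inv_mem hq), ?_⟩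
  rw [commutatorElement_def, D.π_mul _ (D.conj_mem c hq) _ (Q.inv_mem hq), D.π_conj c q hq, D.π_inv hq]
  rcases fix8.1.mem_iff.1 hc with e | e <;> rw [e]
  · exact ⟨0, by simp⟩
  · exact ⟨_, by rw [neg_eq_of_add_eq_zero_left (D.add_self _)]⟩

variable [Finite G]

theorem norm_E1 {c : centralizer ({z} : Set G)} (hc : D.ρ c ∈ centralizer {s8}) : (c : G) ∈ normalizer (E1 D : Set G) := by
  refine Core.mem_normalizer_of_map_conj_le ?_
  rintro _ ⟨q, ⟨hq, u, hu⟩, rfl⟩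
  refine ⟨D.conj_mem c hq, D.ρ c • u, (D.π_conj c q hq).trans ?_⟩
  rw [hu, smul_add, ← mul_smul, mem_centralizer_singleton_iff.1 hc, mul_smul]

theorem sq_E1 {q : G} (hq : q ∈ E1 D) : q * q = 1 := by
  obtain ⟨h1, k, hk, e⟩ := mem_E1.1 hq
  by_cases h0 : k = 0
  · rw [h0, app_zero, ← code2_zero] at e
    rcases D.lg.mem_iff.1 ((D.π_eq_zero q h1).1 (code2_injective e)) with e | e <;> rw [e]
    exacts [mul_one 1, D.lg.mul_self]
  obtain ⟨x, hx, e'⟩ := type8 hk h0 e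
  have := sqv_of_nm D h1 hx
  exact (sq q).symm.trans (sqv_eq_zero.1 (e'.elim (fun a => this.2 a.2) fun a => this.1 a.2))

theorem E1_comm : E1 D ≤ centralizer (E1 D : Set G) := fun _ hx _ hy => comm_of_sq (fun _ => sq_E1) hy hx

omit [Finite G] in
theorem cen_le_z : centralizer (E1 D : Set G) ≤ centralizer {z} := centralizer_le (by simpa using z_mem D)

theorem map_cen : ((centralizer (E1 D : Set G)).subgroupOf (centralizer ({z} : Set G))).map D.ρ = fixL w8L := by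
  refine le_antisymm ?_ fun r hr => ?_
  · rintro _ ⟨l, hl, rfl⟩ v hv
    obtain ⟨q, hq, rfl⟩ := D.π_surj v
    exact D.fix_of_comm hq (hl _ (mem_E1.2 ⟨hq, (by decide +kernel : ∀ c ∈ w8L, ∃ k < 256, c = app 24 tM k) _ hv⟩)).symm
  · obtain ⟨l, e, hl⟩ := exists_lift D (E1_le D) (z_mem D) fun x hx => fix_E1 hr hx
    exact ⟨l, hl, e⟩

variable {R : Subgroup G} {t : G} (h : St D R t)
include h

theorem St.cls {q : G} (hq : q ∈ Q) {k : ℕ} (hk : k < 256) (h0 : k ≠ 0) (e : code2 (D.π q) = app 24 tM k) :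
    q ≠ 1 ∧ (IsConj z q ↔ qN k = 0) := by
  obtain ⟨x, hx, e'⟩ := type8 hk h0 e
  obtain ⟨g, rfl, -⟩ := h.cj
  refine ⟨fun a => mk_ne_zero (x := x) (by omega) (by omega) (by rw [← hx, a, D.π_one]), ?_⟩
  rcases e' with a | a
  · exact iff_of_true (isConj_of_nm D h.card h.pr.mem_l h.pr.ne hq hx a.2) a.1
  · exact iff_of_false (not_isConj_of_nm D h.card hq hx a.2) a.1

omit [Finite G] in
theorem St.t_mem : t ∈ E1 D := mem_E1.2 ⟨h.pr.mem_l, 1, by norm_num, h.code_t.trans (by decide +kernel)⟩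

theorem St.key {n : G} (hn : n ∈ Q ⊔ R) (e1 : n * z * n⁻¹ = t) {x : G} (hx : x ∈ E1 D) :
    n * x * n⁻¹ ∈ centralizer (E1 D : Set G) ⊓ centralizer (centralizer (E1 D : Set G) : Set G) ∧
      ∀ hy, D.ρ ⟨n * x * n⁻¹, hy⟩ ∈ zpowers s8 := by
  have n0 := (h.pr.le_normalizer (A := E1 D ⊓ R) ((closure_le _).2 (by
    rintro _ (rfl | rfl)
    exacts [⟨z_mem D, h.pr.mem_r⟩, ⟨h.t_mem, h.pr.r.mem⟩])) (inf_le_inf_right _ (E1_le D))).trans
    (Core.normalizer_le_normalizer_centralizer _)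
  have l0 : centralizer (E1 D : Set G) ≤ centralizer ((E1 D ⊓ R : Subgroup G) : Set G) := centralizer_le inf_le_left
  have a1 : ∀ d ∈ centralizer ((E1 D ⊓ R : Subgroup G) : Set G), ∀ x ∈ E1 D, d * x * d⁻¹ = x ∨ d * x * d⁻¹ = z * x :=
    fun d hd x hx => conj_or D (c := ⟨d, mem_centralizer_singleton_iff.2 (hd z ⟨z_mem D, h.pr.mem_r⟩).symm⟩) hx.1
      (fix_E1 (fix8.2.2.2 fun v hv => by
        obtain ⟨q, hq, rfl⟩ := D.π_surj v
        have := (by decide +kernel : ∀ c ∈ w7L, c % 4096 = 0 ∧ ∃ k < 256, c = app 24 tM k) _ hv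
        exact D.fix_of_comm hq (hd q ⟨mem_E1.2 ⟨hq, this.2⟩, (h.mem_R hq this.1).2⟩).symm) hx)
  have m1 := (mem_normalizer_iff.1 (n0 hn) _).1 (l0 (E1_comm hx))
  have a2 : ∀ d ∈ centralizer ((E1 D ⊓ R : Subgroup G) : Set G),
      d * (n * x * n⁻¹) * d⁻¹ = n * x * n⁻¹ ∨ d * (n * x * n⁻¹) * d⁻¹ = t * (n * x * n⁻¹) := fun d hd => by
    refine (a1 _ ((mem_normalizer_iff''.1 (n0 hn) d).1 hd) x hx).imp (fun e => ?_) fun e => ?_
    · nth_rw 2 [← e]; group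
    · rw [← e1, conj_mul, ← e]; group
  generalize n * x * n⁻¹ = y at *
  have a3 : ∀ hy, D.ρ ⟨y, hy⟩ ∈ zpowers s8 := fun hy => (fix8.1.centralizer_eq fix8.2.1).le fun r hr => by
    obtain ⟨d, hd, rfl⟩ := (map_cen (D := D)).ge hr
    rw [← mul_inv_eq_iff_eq_mul, ← map_inv, ← map_mul, ← map_mul]
    rcases a2 d (l0 hd) with e | e
    · exact congrArg D.ρ (Subtype.ext e)
    · rw [← one_mul (D.ρ ⟨y, hy⟩), ← (D.ker ⟨t, D.lg.cent h.pr.mem_l⟩).2 h.pr.mem_l, ← map_mul]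
      exact congrArg D.ρ (Subtype.ext e)
  refine ⟨⟨fun w hw => ?_, fun d hd => ?_⟩, a3⟩
  · refine mul_inv_eq_iff_eq_mul.1 ((a2 w (l0 (E1_comm hw))).resolve_right fun e => ?_)
    have e2 : t * (y * w * y⁻¹) = w := by rw [← mul_assoc, ← mul_assoc, ← e]; group
    rcases a1 y m1 w hw with e3 | e3 <;> rw [e3] at e2
    · exact h.pr.r.ne_one (mul_eq_right.1 e2)
    · rw [← mul_assoc, mul_eq_right, mul_eq_one_iff_eq_inv, D.lg.inv_eq] at e2
      exact h.pr.ne e2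
  · refine mul_inv_eq_iff_eq_mul.1 ((a2 d (l0 hd)).resolve_right fun e => ?_)
    obtain ⟨s, hs, -, e2⟩ := h.pr.exists_not_mem
    have c1 := inv_mem (comm_mem (a3 (mem_centralizer_singleton_iff.2 (m1 z ⟨z_mem D, h.pr.mem_r⟩).symm)) hs)
    rw [commutatorElement_inv] at c1
    have c2 : d * (s * y * s⁻¹) * d⁻¹ = t * (s * y * s⁻¹) := by
      calc _ = d * ⁅s, y⁆ * y * d⁻¹ := by group
        _ = ⁅s, y⁆ * t * y := by rw [← hd _ c1, mul_assoc _ d, mul_assoc, e, mul_assoc]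
        _ = _ := by rw [E1_comm h.t_mem _ c1]; group
    rcases a2 _ ((mem_normalizer_iff''.1 (n0 (mem_sup_left hs)) d).1 (l0 hd)) with e3 | e3
    · refine h.pr.r.ne_one (mul_eq_right.1 (c2.symm.trans ?_))
      nth_rw 2 [← e3]; group
    · refine D.lg.ne_one (mul_eq_right.1 (mul_right_cancel (b := s * y * s⁻¹) (Eq.trans ?_ c2)))
      rw [← e2, conj_mul, ← e3]; group

theorem St.exists_y : ∃ (n : G) (y : centralizer ({z} : Set G)), n * z * n⁻¹ = t ∧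
    n ∈ normalizer (centralizer (E1 D : Set G) : Set G) ∧ D.ρ y = s8 ∧
    (y : G) ∈ centralizer (E1 D : Set G) ⊓ centralizer (centralizer (E1 D : Set G) : Set G) ∧ (y : G) * y = 1 ∧
    IsConj z y ∧ ¬ IsConj z (y * z) := by
  obtain ⟨n, hn, e1, e2, e3⟩ := h.exists_swap
  obtain ⟨x, hx, cx⟩ := exists_of_code D (app_lt 24 tM 56)
  have h1 : x ∈ E1 D := mem_E1.2 ⟨hx, 56, by norm_num, cx⟩
  obtain ⟨k1, k2⟩ := h.key hn e1 h1
  refine ⟨n, ⟨_, cen_le_z k1.1⟩, e1, inv_mem_iff.1 (Core.mem_normalizer_of_map_conj_le ?_),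
    (fix8.1.mem_iff.1 (k2 _)).resolve_left fun e => ?_, k1, by simp [conj_mul, sq_E1 h1],
    ((h.cls hx (by norm_num) (by norm_num) cx).2.2 (by decide +kernel)).trans (isConj_iff.2 ⟨n, rfl⟩), fun e => ?_⟩
  · rintro _ ⟨d, hd, rfl⟩ w hw
    have := (h.key hn e1 hw).1.2 d hd
    change w * (n⁻¹ * d * n⁻¹⁻¹) = n⁻¹ * d * n⁻¹⁻¹ * w
    calc _ = n⁻¹ * (n * w * n⁻¹ * d) * n := by group
      _ = _ := by rw [← this]; group
  · have a : x ∈ Q ⊓ R := (mem_normalizer_iff.1 (h.pr.le_normalizer h.pr.closure_le le_rfl hn) x).2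
      ⟨(D.ker _).1 e, e3 ▸ ⟨x, hx, rfl⟩⟩
    obtain ⟨q, hq, cq⟩ := exists_of_code D (c := 4096) (by norm_num)
    have := (comm_iff_bil D hx hq).1 (comm_of_sq (fun _ => h.mul_self) a (h.mem_R hq (by rw [cq])))
    rw [cx, cq] at this
    exact absurd this (by decide +kernel)
  · have a := (h.cls (Q.mul_mem hx h.pr.mem_l) (k := 57) (by norm_num) (by norm_num)
      (by rw [code_mul D hx h.pr.mem_l, cx, h.code_t]; decide +kernel)).2.1
      (e.trans (isConj_iff.2 ⟨n⁻¹, show n⁻¹ * (n * x * n⁻¹ * z) * n⁻¹⁻¹ = _ by rw [← e2]; group⟩))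
    exact absurd a (by decide +kernel)

end Cfsg.Lib.M5
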