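import Cfsg.Agent.Lib.M5.Ten1

/-!
# The orthogonal `2¹⁰` in a group of Monster type: coordinates and the quadratic form (helper24)
-/

set_option autoImplicit false
set_option maxRecDepth 100000

namespace Cfsg.Lib.M5

open Subgroup MulAction Matrix Cfsg.Lib.Leech Cfsg.Lib.ES Cfsg.Spor Cfsg.Lib.Mon Cfsg.Lib.Calc Cfsg.Lib.F2
open scoped commutatorElement

variable {G : Type*} [Group G]

theorem conj_prodA {b : ℕ → G} {m n T : ℕ} {A : Subgroup G} (hA : ∀ x ∈ A, x * x = 1) (hb : ∀ i < m, b i ∈ A) {g : G}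
    (h : ∀ l < n, g * b l * g⁻¹ = prodA b (get m T l) m) (c : ℕ) : g * prodA b c n * g⁻¹ = prodA b (appA m T c n) m := by
  induction n with
  | zero => simp [prodA, appA_zero, prodA_zero]
  | succ n ih =>
    rw [prodA, ← conj_mul, ih fun l hl => h l (by omega), appA_succ, prodA_xor hA hb]
    split_ifs
    · rw [h n (by omega)]
    · simp [prodA_zero]

/-- The involutions in the centre. -/
def omZ (O : Subgroup G) : Subgroup G where
  carrier := {x | x ∈ O ⊓ centralizer (O : Set G) ∧ x * x = 1}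
  one_mem' := ⟨one_mem _, one_mul 1⟩
  mul_mem' := fun {a b} ha hb => ⟨mul_mem ha.1 hb.1, by
    rw [mul_assoc, ← mul_assoc b, ← hb.1.2 a ha.1.1, mul_assoc, hb.2, mul_one, ha.2]⟩
  inv_mem' := fun {a} ha => ⟨inv_mem ha.1, by rw [← _root_.mul_inv_rev, ha.2, inv_one]⟩

variable [Finite G] {z : G} {Q : Subgroup G} {D : XD z Q Co1 L2}

theorem rho_Z {x : centralizer ({z} : Set G)} (hx : (x : G) ∈ centralizer (centralizer (E1 D : Set G) : Set G)) :
    D.ρ x ∈ zpowers s8 := (fix8.1.centralizer_eq fix8.2.1).le fun r hr => by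
  obtain ⟨d, hd, rfl⟩ := (map_cen (D := D)).ge hr
  rw [← map_mul, ← map_mul]
  exact congrArg D.ρ (Subtype.ext (hx d hd))

omit [Finite G] in
theorem mul_mem_or {x y : centralizer ({z} : Set G)} (hy : D.ρ y = s8) (hx : D.ρ x ∈ zpowers s8) :
    (x : G) ∈ Q ∨ (y : G) * x ∈ Q :=
  (fix8.1.mem_iff.1 hx).imp (D.ker x).1 fun e => (D.ker (y * x)).1 (by rw [map_mul, hy, e, fix8.1.mul_self])

variable {R : Subgroup G} {t : G} (h : St D R t)
include h

theorem St.exists_psi {y : centralizer ({z} : Set G)} (hy : D.ρ y = s8) (yO : (y : G) ∈ omZ (centralizer (E1 D : Set G)))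
    (c1 : IsConj z y) (c2 : ¬ IsConj z (y * z)) {E : Subgroup G}
    (hE : E = centralizer (E1 D : Set G) ⊓ centralizer (centralizer (E1 D : Set G) : Set G)) :
    (∀ x ∈ E, x * x = 1) ∧ Nat.card E = 2 ^ 10 ∧
      ∃ ψ : normalizer (E : Set G) →* isometryGroup (ZMod 2) (quadFormPlus 5 (ZMod 2)),
        ∀ g, ψ g = 1 ↔ (g : G) ∈ centralizer (E : Set G) := by
  choose q hq cq using fun i => exists_of_code D (get_lt 24 uM i)
  obtain ⟨b, b8, b9, bi⟩ : ∃ b : ℕ → G, b 8 = z ∧ b 9 = y ∧ ∀ i < 8, b i = ⁅(y : G), q i⁆ :=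
    ⟨fun i => if i = 8 then z else if i = 9 then y else ⁅(y : G), q i⁆, rfl, rfl, fun i hi =>
      (if_neg (by omega)).trans (if_neg (by omega))⟩
  have yQ : (y : G) ∉ Q := fun e => fix8.1.ne_one (hy ▸ (D.ker y).2 e)
  have hb : ∀ i < 9, b i ∈ E1 D ∧ code2 (D.π (b i)) = get 24 tM i := fun i hi => by
    by_cases e : i = 8
    · rw [e, b8, D.π_z]; exact ⟨z_mem D, code2_zero⟩
    · rw [bi i (by omega), (code_comm D (hy ▸ lrep_s) (hq i)).2, cq]
      exact ⟨comm_mem (hy ▸ mem_zpowers _) (hq i), (by decide +kernel : ∀ i < 8,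
        app 24 sM (get 24 uM i) ^^^ get 24 uM i = get 24 tM i) i (by omega)⟩
  have hA : ∀ x ∈ omZ (centralizer (E1 D : Set G)), x * x = 1 := fun x hx => hx.2
  have EA : E1 D ≤ omZ (centralizer (E1 D : Set G)) := fun x hx => ⟨⟨E1_comm hx, fun d hd => (hd x hx).symm⟩, sq_E1 hx⟩
  have bA : ∀ i < 10, b i ∈ omZ (centralizer (E1 D : Set G)) := fun i hi => by
    by_cases e : i = 9
    · rw [e, b9]; exact yO
    · exact EA (hb i (by omega)).1
  have p1 : ∀ k, prodA b k 9 ∈ Q := fun k => prodA_mem fun i hi _ => (hb i hi).1.1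
  have p2 : ∀ k < 512, prodA b k 10 ∈ Q ∧ code2 (D.π (prodA b k 10)) = app 24 tM (k % 256) := fun k hk => by
    rw [prodA, Nat.testBit_lt_two_pow (show k < 2 ^ 9 from hk), if_neg Bool.false_ne_true, one_mul,
      code_prodA D (W := tM) fun i hi _ => ⟨(hb i hi).1.1, (hb i hi).2⟩]
    exact ⟨p1 k, (by decide +kernel : ∀ k < 512, appA 24 tM k 9 = app 24 tM (k % 256)) k hk⟩
  have j8 : prodA b 256 10 = z := (prodA_two_pow (i := 8) (by norm_num)).trans b8
  have j9 : prodA b 512 10 = y := (prodA_two_pow (i := 9) (by norm_num)).trans b9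
  have act : ∀ i < 8, ∀ k, q i * prodA b k 10 * (q i)⁻¹ = prodA b (app 10 (nth 0 aL i) k) 10 := fun i hi =>
    conj_prodA hA bA fun l hl => by
      obtain ⟨a1, a2, a3⟩ := (by decide +kernel : ∀ i < 8, get 10 (nth 0 aL i) 8 = 256 ∧ get 10 (nth 0 aL i) 9 = 512 ^^^ 2 ^ i ∧
        ∀ l < 8, get 10 (nth 0 aL i) l = if bil (get 24 uM i) (get 24 tM l) = 0 then 2 ^ l else 256 ^^^ 2 ^ l) i hi
      rcases (by omega : l < 8 ∨ l = 8 ∨ l = 9) with a | rfl | rfl
      · have a4 := comm_iff_bil D (hq i) (hb l (by omega)).1.1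
        rw [cq, (hb l (by omega)).2] at a4
        rw [a3 l a]
        split_ifs with a5
        · rw [prodA_two_pow hl, a4.2 a5, mul_inv_cancel_right]
        · rw [prodA_xor hA bA, j8, prodA_two_pow hl]
          exact (D.lg.conj_eq_or (hq i) (hb l (by omega)).1.1).resolve_left fun e => a5 (a4.1 (mul_inv_eq_iff_eq_mul.1 e))
      · rw [a1, j8, b8, D.lg.comm (hq i), mul_inv_cancel_right]
      · rw [a2, prodA_xor hA bA, j9, prodA_two_pow (by omega), b9, bi i hi, commutatorElement_def,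
          inv_eq_of_mul_eq_one_left yO.2, ← mul_assoc, ← mul_assoc, ← mul_assoc, yO.2, one_mul]
  have y9 : ∀ k < 1024, 512 ≤ k → prodA b k 10 ≠ 1 := fun k hk hk' e => by
    rw [prodA, (by decide +kernel : ∀ k < 1024, 512 ≤ k → k.testBit 9 = true) k hk hk', if_pos rfl, b9] at e
    exact yQ (eq_inv_of_mul_eq_one_left e ▸ Q.inv_mem (p1 k))
  have cls : ∀ r, ∀ k < 1024, k % 256 = r → (prodA b k 10 = 1 ∨ IsConj z (prodA b k 10) ↔ qN k = 0) := fun r => by
    induction r using Nat.strong_induction_on with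
    | _ r ih =>
    intro k hk hr
    by_cases h0 : r = 0
    · rcases (by omega : k = 0 ∨ k = 256 ∨ k = 512 ∨ k = 768) with rfl | rfl | rfl | rfl
      · exact iff_of_true (Or.inl prodA_zero) (by decide +kernel)
      · exact iff_of_true (Or.inr (j8 ▸ IsConj.refl _)) (by decide +kernel)
      · exact iff_of_true (Or.inr (j9 ▸ c1)) (by decide +kernel)
      · refine iff_of_false (not_or.2 ⟨y9 _ hk (by decide), ?_⟩) (by decide +kernel)
        rwa [show 768 = 512 ^^^ 256 from rfl, prodA_xor hA bA, j8, j9]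
    by_cases h1 : k < 512
    · have := h.cls (p2 k h1).1 (Nat.mod_lt _ (by norm_num)) (by omega) (p2 k h1).2
      rw [or_iff_right this.1, this.2, (by decide +kernel : ∀ k < 512, qN (k % 256) = qN k) k h1]
    · obtain ⟨i, hi, a1, a2⟩ := (by decide +kernel : ∀ k < 1024, ¬ k < 512 → k % 256 ≠ 0 → ∃ i < 8,
        app 10 (nth 0 aL i) k % 256 < k % 256 ∧ qN (app 10 (nth 0 aL i) k) = qN k) k hk h1 (hr ▸ h0)
      rw [← a2, ← ih _ (hr ▸ a1) _ (app_lt 10 _ _) rfl, ← act i hi, conj_eq_one_iff]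
      exact or_congr_right ⟨fun e => e.trans (isConj_iff.2 ⟨_, rfl⟩), fun e => e.trans (isConj_iff.2 ⟨_, rfl⟩).symm⟩
  obtain ⟨F, hF, cF, mF, -, ψ, hψ, kψ⟩ := exists_par num_T hA bA fun k hk e => by
    have h1 : k < 512 := not_le.1 fun a => y9 k hk a e
    have h2 := (p2 k h1).2
    rw [e, D.π_one, code2_zero] at h2
    refine ((by decide +kernel : ∀ k < 512, 0 = app 24 tM (k % 256) → k = 0 ∨ k = 256) k h1 h2).resolve_right ?_
    rintro rfl
    exact D.lg.ne_one (j8.symm.trans e)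
  have bF : ∀ i < 10, b i ∈ F := fun i hi => (mF _).2 ⟨_, Nat.pow_lt_pow_right (by norm_num) hi, prodA_two_pow hi⟩
  have EF : E1 D ≤ F := fun x hx => by
    obtain ⟨h1, k, -, e⟩ := mem_E1.1 hx
    refine (mem_of_span D (A := F ⊓ Q) inf_le_right ⟨b8 ▸ bF 8 (by norm_num), D.lg.mem⟩ (fun i hi _ => ?_) h1 e).1
    by_cases a : i < 9
    · exact ⟨b i, ⟨bF i (by omega), (hb i a).1.1⟩, (hb i a).2⟩
    · exact ⟨1, one_mem _, by rw [D.π_one, (by decide +kernel : ∀ i < 24, ¬ i < 9 → get 24 tM i = 0) i hi a, code2_zero]⟩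
  have FE : E = F := hE.trans (le_antisymm (fun x hx => by
    have k : ∀ x ∈ Q, x ∈ centralizer (centralizer (E1 D : Set G) : Set G) → x ∈ F := fun x h1 h2 =>
      EF (cen_cen D.lg D.es (E1_le D) (z_mem D) h1 fun w hw => h2 w hw.2)
    rcases mul_mem_or hy (rho_Z (x := ⟨x, cen_le_z hx.1⟩) hx.2) with a | a
    · exact k x a hx.2
    · exact (F.mul_mem_cancel_left (b9 ▸ bF 9 (by norm_num))).1 (k _ a (mul_mem yO.1.2 hx.2))) fun x hx => (hF hx).1)
  subst FE
  refine ⟨fun x hx => (hF hx).2, by simpa using cF, ψ.codRestrict _ fun g => Orth.mem_isometryGroup.2 fun v => ?_,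
    fun g => Subtype.ext_iff.trans (kψ g)⟩
  have : quadFormPlus 5 (ZMod 2) ((ψ g).1 *ᵥ v) = 0 ↔ quadFormPlus 5 (ZMod 2) v = 0 := by
    rw [← qN_iff, ← qN_iff, ← cls _ _ (code1_lt _) rfl, ← cls _ _ (code1_lt _) rfl, hψ, conj_eq_one_iff]
    exact or_congr_right ⟨fun e => e.trans (isConj_iff.2 ⟨_, rfl⟩).symm, fun e => e.trans (isConj_iff.2 ⟨_, rfl⟩)⟩
  revert this
  generalize quadFormPlus 5 (ZMod 2) _ = a, quadFormPlus 5 (ZMod 2) _ = c
  revert a c
  decide

end Cfsg.Lib.M5
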